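import Cfsg.Agent.TT.LargeS
import Cfsg.Agent.S5433

/-! Simplicity criterion for groups with a large extraspecial subgroup. -/

set_option autoImplicit false

namespace Cfsg.Agent.TT

open Cfsg Cfsg.Agent.GT Subgroup

theorem simple_of_large {G : Type*} [Group G] [Finite G] {Q : Subgroup G} {z : G} (h : LQ Q z)
    (hF : fstarOf C1[z] = Q) (hL : IsLargeExtraspecial Q) (hM : C1[z] ≤ normalClosure {z}) :
    IsSimpleGroup G := by
  rcases large_structure h hL.2.2.2 rfl with ⟨h1, -⟩ | ⟨-, h1, -⟩ | ⟨-, L, u, -, -, -, -, -, -, z₁, -, -, -, -, h1⟩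
  · obtain ⟨x, hx, y, hy, e⟩ := h.nonab
    exact absurd (isMulCommutative_iff_le_cent.1 h1 (hM (h.le_cent1 hy)) x (hM (h.le_cent1 hx))) e
  · have := Cfsg.Agent.S5433.result Q hL _ (h.le_cent1.trans hM)
    rw [h.norm_eq, sup_eq_left.2 hM] at this
    rw [this] at h1
    exact (topEquiv (G := G)).symm.isSimpleGroup
  · exact absurd (le_antisymm h.le_Op ((Op_le_fittingOf Nat.prime_two _).trans
      (le_sup_right.trans hF.le))) h1

end Cfsg.Agent.TT
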