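import Cfsg.Agent.TT.Three
import Cfsg.Agent.TT.WordsData

/-! The two planes of Fischer spaces as partial quasigroups. -/

set_option autoImplicit false

namespace Cfsg.Agent.TT.Fs

open Cfsg Cfsg.Agent.GT Subgroup LineSystem

structure Mdl {P : Type} (M : Set (Set P)) (col : P → P → Prop) (t : P → P → P) : Prop where
  lines : ∀ l, l ∈ M ↔ ∃ p q, col p q ∧ l = {p, q, t p q}
  ne : ∀ p q, col p q → p ≠ q ∧ t p q ≠ p ∧ t p q ≠ q
  fix : ∀ p q, ¬ col p q → t p q = q
  col3 : ∀ p q, col p q → col q p ∧ col p (t p q) ∧ col (t p q) p ∧ col q (t p q) ∧ col (t p q) q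
  dist : ∀ x y z, col y z → col (t x y) (t x z) ∧ t x (t y z) = t (t x y) (t x z)

def colA (p q : Fin 2 → ZMod 3) : Prop := p ≠ q
def tA (p q : Fin 2 → ZMod 3) : Fin 2 → ZMod 3 := -p - q
def colD (p q : DualAffinePoint) : Prop := (p.1 ∩ q.1).card = 1
def tD (p q : DualAffinePoint) : DualAffinePoint :=
  if h : (symmDiff p.1 q.1).card = 2 then ⟨_, h⟩ else q

instance colA_dec : DecidableRel colA := fun p q => inferInstanceAs (Decidable (p ≠ q))
instance colD_dec : DecidableRel colD := fun p q => inferInstanceAs (Decidable (_ = 1))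

theorem mdlA : Mdl affinePlaneThree colA tA where
  lines := fun l => by
    have k : ∀ v w x : Fin 2 → ZMod 3, (∃ c : ZMod 3, x = v + c • w) ↔
        x = v ∨ x = v + w ∨ x = tA v (v + w) := by decide +kernel
    constructor
    · rintro ⟨v, w, hw, rfl⟩
      exact ⟨v, v + w, by simpa [colA] using hw, Set.ext fun x => k v w x⟩
    · rintro ⟨p, q, h, rfl⟩
      exact ⟨p, q - p, sub_ne_zero.2 (Ne.symm h), Set.ext fun x => by
        have := k p (q - p) x
        rw [add_sub_cancel] at this
        exact this.symm⟩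
  ne := by decide +kernel
  fix := by decide +kernel
  col3 := by decide +kernel
  dist := by decide +kernel

theorem mdlD : Mdl dualAffinePlaneTwo colD tD where
  lines := fun l => by
    have k1 : ∀ i : Fin 4, ∃ p q, colD p q ∧ ∀ s : DualAffinePoint,
      i ∉ s.1 ↔ s = p ∨ s = q ∨ s = tD p q := by decide +kernel
    have k2 : ∀ p q, colD p q → ∃ i : Fin 4, ∀ s : DualAffinePoint,
      (s = p ∨ s = q ∨ s = tD p q) ↔ i ∉ s.1 := by decide +kernel
    constructor
    · rintro ⟨i, rfl⟩
      obtain ⟨p, q, h, e⟩ := k1 i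
      exact ⟨p, q, h, Set.ext e⟩
    · rintro ⟨p, q, h, rfl⟩
      obtain ⟨i, e⟩ := k2 p q h
      exact ⟨i, Set.ext e⟩
  ne := by decide +kernel
  fix := by decide +kernel
  col3 := by decide +kernel
  dist := by decide +kernel

theorem Mdl.col_of_mem {P : Type} {M : Set (Set P)} {col : P → P → Prop} {t : P → P → P}
    (h : Mdl M col t) {l : Set P} (hl : l ∈ M) {p q : P} (hp : p ∈ l) (hq : q ∈ l) (hne : p ≠ q) :
    col p q := by
  obtain ⟨a, b, c, rfl⟩ := (h.lines l).1 hl
  obtain ⟨c1, c2, c3, c4, c5⟩ := h.col3 a b c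
  rcases hp with rfl | rfl | rfl <;> rcases hq with rfl | rfl | rfl <;>
    first | assumption | exact absurd rfl hne

theorem span_isSubspace {X : Type*} (L : Set (Set X)) (S : Set X) : IsSubspace L (span L S) :=
  fun l hl x hx y hy hne h1 h2 _ hz T hT => hT.2 l hl x (hx T hT) y (hy T hT) hne h1 h2 hz

theorem subset_span {X : Type*} (L : Set (Set X)) (S : Set X) : S ⊆ span L S :=
  fun _ hx _ hT => hT.1 hx

end Cfsg.Agent.TT.Fs
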