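import Mathlib
import Cfsg.Prelude.Def_AxialAlgebras

/-! Majorana axes: basic calculus. -/

set_option autoImplicit false

namespace Cfsg.Agent.TT

open Cfsg Cfsg.Axial

variable {V : Type*} [AddCommGroup V] [Module ℝ V]

/-- the working form of a Majorana pair with axis of length one -/
structure Ax (mul : V →ₗ[ℝ] V →ₗ[ℝ] V) (B : LinearMap.BilinForm ℝ V) (μ : V ≃ₗ[ℝ] V) (a : V) :
    Prop where
  idem : mul a a = a
  norm : B a a = 1
  fix : μ a = a
  dec : ∀ x, ∃ u v w : V, x = B a x • a + u + v + w ∧ mul a u = 0 ∧ mul a v = (1 / 4 : ℝ) • v ∧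
    mul a w = (1 / 32 : ℝ) • w
  fix0 : ∀ u, mul a u = 0 → μ u = u
  fix4 : ∀ u, mul a u = (1 / 4 : ℝ) • u → μ u = u
  neg : ∀ u, mul a u = (1 / 32 : ℝ) • u → μ u = -u
  f00 : ∀ u v, mul a u = 0 → mul a v = 0 → mul a (mul u v) = 0
  f04 : ∀ u v, mul a u = 0 → mul a v = (1 / 4 : ℝ) • v → mul a (mul u v) = (1 / 4 : ℝ) • mul u v
  f44 : ∀ u v, mul a u = (1 / 4 : ℝ) • u → mul a v = (1 / 4 : ℝ) • v →
    mul a (mul u v) = B a (mul u v) • a
  aut : ∀ u v, μ (mul u v) = mul (μ u) (μ v)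
  iso : ∀ u v, B (μ u) (μ v) = B u v

variable {mul : V →ₗ[ℝ] V →ₗ[ℝ] V} {B : LinearMap.BilinForm ℝ V} {μ ν : V ≃ₗ[ℝ] V} {a x : V}

theorem mem_eigen {c : ℝ} : x ∈ eigen mul a c ↔ mul a x = c • x := Module.End.mem_eigenspace_iff

theorem eigenSum_insert (c : ℝ) (S : Set ℝ) :
    eigenSum mul a (insert c S) = eigen mul a c ⊔ eigenSum mul a S := by
  unfold eigenSum; rw [iSup_insert]

theorem eigenSum_single (c : ℝ) : eigenSum mul a {c} = eigen mul a c := by
  unfold eigenSum; rw [iSup_singleton]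

theorem orth_of_eigen (hV : IsMajoranaAmbient mul B) (ha : mul a a = a) {c : ℝ} (hc : c ≠ 1)
    (hx : mul a x = c • x) : B a x = 0 := by
  have := hV.2.2.2.1 a a x
  rw [hx, ha, map_smul, smul_eq_mul] at this
  have h2 : (c - 1) * B a x = 0 := by linarith
  exact (mul_eq_zero.1 h2).resolve_left (sub_ne_zero.2 hc)

theorem Ax.of (hV : IsMajoranaAmbient mul B) (h : IsMajoranaPair mul B μ a) (hn : B a a = 1) :
    Ax mul B μ a := by
  obtain ⟨h1, h2, ⟨⟨-, h3, h4, h5⟩, h6⟩, h7, h8⟩ := h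
  have k1 : ∀ x ∈ eigen mul a 1, ∃ c : ℝ, x = c • a := fun x hx => by
    rw [h6, Submodule.mem_span_singleton] at hx
    obtain ⟨c, rfl⟩ := hx; exact ⟨c, rfl⟩
  have k2 : ∀ c ∈ ({1, 0, 1 / 4} : Set ℝ), ∀ u, mul a u = c • u → μ u = u := fun c hc u hu =>
    h7 u (le_iSup₂_of_le (f := fun c (_ : c ∈ ({1, 0, 1 / 4} : Set ℝ)) => eigen mul a c) c hc le_rfl
      (mem_eigen.2 hu))
  refine ⟨h3, hn, k2 1 (by simp) a (by simp [h3]), fun x => ?_,
    fun u hu => k2 0 (by simp) u (by simp [hu]), k2 _ (by simp),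
    fun u hu => h8 u (mem_eigen.2 hu), fun u v hu hv => ?_, fun u v hu hv => ?_,
    fun u v hu hv => ?_, h1, h2⟩
  · have hx : x ∈ eigenSum mul a majoranaSpectrum := by rw [h4]; trivial
    unfold majoranaSpectrum at hx
    rw [eigenSum_insert, eigenSum_insert, eigenSum_insert, eigenSum_single] at hx
    simp only [Submodule.mem_sup, mem_eigen] at hx
    obtain ⟨y, hy, _, ⟨u, hu, _, ⟨v, hv, w, hw, rfl⟩, rfl⟩, rfl⟩ := hx
    obtain ⟨c, rfl⟩ := k1 y (mem_eigen.2 hy)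
    refine ⟨u, v, w, ?_, by simpa using hu, hv, hw⟩
    simp only [map_add, map_smul, hn, orth_of_eigen hV h3 (by norm_num) hu,
      orth_of_eigen hV h3 (by norm_num) hv, orth_of_eigen hV h3 (by norm_num) hw]
    simp [add_assoc]
  · have := h5 0 (by simp [majoranaSpectrum]) 0 (by simp [majoranaSpectrum]) u
      (mem_eigen.2 (by simp [hu])) v (mem_eigen.2 (by simp [hv]))
    have e : monsterLaw (1 / 4 : ℝ) (1 / 32) 0 0 = {0} := by
      unfold monsterLaw; norm_num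
    rw [e, eigenSum_single, mem_eigen] at this
    simpa using this
  · have := h5 0 (by simp [majoranaSpectrum]) (1 / 4) (by simp [majoranaSpectrum]) u
      (mem_eigen.2 (by simp [hu])) v (mem_eigen.2 hv)
    have e : monsterLaw (1 / 4 : ℝ) (1 / 32) 0 (1 / 4) = {1 / 4} := by
      unfold monsterLaw; norm_num
    rwa [e, eigenSum_single, mem_eigen] at this
  · have := h5 (1 / 4) (by simp [majoranaSpectrum]) (1 / 4) (by simp [majoranaSpectrum]) u
      (mem_eigen.2 hu) v (mem_eigen.2 hv)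
    have e : monsterLaw (1 / 4 : ℝ) (1 / 32) (1 / 4) (1 / 4) = {1, 0} := by
      unfold monsterLaw; norm_num
    rw [e, eigenSum_insert, eigenSum_single] at this
    simp only [Submodule.mem_sup, mem_eigen] at this
    obtain ⟨y, hy, w, hw, e⟩ := this
    obtain ⟨c, rfl⟩ := k1 y (mem_eigen.2 hy)
    rw [← e]
    simp [hw, h3, hn, orth_of_eigen hV h3 (by norm_num) hw]

theorem Ax.unique (h : Ax mul B μ a) (h' : Ax mul B ν a) : μ = ν := by
  ext x
  obtain ⟨u, v, w, e, h1, h2, h3⟩ := h.dec x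
  rw [e]
  simp only [map_add, map_smul, h.fix, h'.fix, h.fix0 u h1, h'.fix0 u h1, h.fix4 v h2, h'.fix4 v h2,
    h.neg w h3, h'.neg w h3]

theorem Ax.sq (h : Ax mul B μ a) : μ * μ = 1 := by
  ext x
  obtain ⟨u, v, w, e, h1, h2, h3⟩ := h.dec x
  rw [e]
  simp [h.fix, h.fix0 u h1, h.fix4 v h2, h.neg w h3]

theorem Ax.conj (h : Ax mul B μ a) (T : V ≃ₗ[ℝ] V) (hT : ∀ u v, T (mul u v) = mul (T u) (T v))
    (hB : ∀ u v, B (T u) (T v) = B u v) : Ax mul B (T * μ * T⁻¹) (T a) := by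
  have k : ∀ u, (T * μ * T⁻¹) (T u) = T (μ u) := fun u => by
    simp [LinearEquiv.mul_apply]
  refine ⟨by rw [← hT, h.idem], by rw [hB, h.norm], by rw [k, h.fix], fun x => ?_,
    fun u hu => ?_, fun u hu => ?_, fun u hu => ?_, fun u v hu hv => ?_, fun u v hu hv => ?_,
    fun u v hu hv => ?_, fun u v => ?_, fun u v => ?_⟩
  · obtain ⟨x, rfl⟩ := T.surjective x
    obtain ⟨u, v, w, e, h1, h2, h3⟩ := h.dec x
    refine ⟨T u, T v, T w, ?_, by rw [← hT, h1, map_zero], by rw [← hT, h2, map_smul],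
      by rw [← hT, h3, map_smul]⟩
    rw [hB]; conv_lhs => rw [e]
    simp
  all_goals obtain ⟨u, rfl⟩ := T.surjective u
  · rw [← hT, T.map_eq_zero_iff] at hu; rw [k, h.fix0 u hu]
  · rw [← hT, ← map_smul, T.injective.eq_iff] at hu; rw [k, h.fix4 u hu]
  · rw [← hT, ← map_smul, T.injective.eq_iff] at hu; rw [k, h.neg u hu, map_neg]
  all_goals obtain ⟨v, rfl⟩ := T.surjective v
  · rw [← hT, T.map_eq_zero_iff] at hu hv; rw [← hT, ← hT, h.f00 u v hu hv, map_zero]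
  · rw [← hT, T.map_eq_zero_iff] at hu
    rw [← hT, ← map_smul, T.injective.eq_iff] at hv
    rw [← hT, ← hT, h.f04 u v hu hv, map_smul]
  · rw [← hT, ← map_smul, T.injective.eq_iff] at hu hv
    rw [← hT, ← hT, h.f44 u v hu hv, map_smul, hB]
  · rw [← hT, k, k, k, h.aut, hT]
  · rw [k, k, hB, hB, h.iso]

/-- the invariant vector attached to an axis and a vector -/
noncomputable def sg (mul : V →ₗ[ℝ] V →ₗ[ℝ] V) (a x : V) : V :=
  mul a x - (1 / 32 : ℝ) • a - (1 / 32 : ℝ) • x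

theorem mul_eq_sg (a x : V) : mul a x = sg mul a x + (1 / 32 : ℝ) • a + (1 / 32 : ℝ) • x := by
  unfold sg; module

theorem sg_comm (hV : IsMajoranaAmbient mul B) (a x : V) : sg mul a x = sg mul x a := by
  unfold sg; rw [hV.1 a x]; module

theorem Ax.sg_facts (h : Ax mul B μ a) (x : V) :
    sg mul a (μ x) = sg mul a x ∧
    mul a (sg mul a x - (7 / 64 : ℝ) • (x + μ x) - (3 / 4 * B a x - 1 / 32) • a) = 0 ∧
    mul a (sg mul a x + (1 / 64 : ℝ) • (x + μ x) - (B a x - 1 / 32) • a) =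
      (1 / 4 : ℝ) • (sg mul a x + (1 / 64 : ℝ) • (x + μ x) - (B a x - 1 / 32) • a) ∧
    mul a (sg mul a x) = (31 / 32 * B a x - 1 / 32) • a + (7 / 32 : ℝ) •
      (sg mul a x + (1 / 64 : ℝ) • (x + μ x) - (B a x - 1 / 32) • a) := by
  obtain ⟨u, v, w, e, h1, h2, h3⟩ := h.dec x
  generalize B a x = c at e ⊢
  subst e
  simp only [sg, map_add, map_sub, map_smul, map_neg, h.fix, h.fix0 u h1, h.fix4 v h2, h.neg w h3,
    h.idem, h1, h2, h3, map_zero]
  refine ⟨?_, ?_, ?_, ?_⟩ <;> module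

theorem Ax.sg_fix (h : Ax mul B μ a) (x : V) : μ (sg mul a x) = sg mul a x := by
  rw [← (h.sg_facts x).1]
  conv_lhs => rw [(h.sg_facts x).1]
  simp only [sg, map_sub, map_smul, h.aut, h.fix]

theorem Ax.B_fix (h : Ax mul B μ a) (x : V) : B a (μ x) = B a x := by
  conv_lhs => rw [← h.fix]
  exact h.iso a x

theorem B_sg (hV : IsMajoranaAmbient mul B) (ha : mul a a = a) (hn : B a a = 1) (x : V) :
    B a (sg mul a x) = 31 / 32 * B a x - 1 / 32 := by
  simp only [sg, map_sub, map_smul, hV.2.2.2.1 a a x, ha, hn, smul_eq_mul]; ring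

theorem B_nonneg (hV : IsMajoranaAmbient mul B) (x : V) : 0 ≤ B x x := by
  by_cases h : x = 0
  · simp [h]
  · exact (hV.2.2.1 x h).le

end Cfsg.Agent.TT
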