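import Cfsg.Agent.TT.Majorana

/-! Sakuma's six-transposition property. -/

set_option autoImplicit false

namespace Cfsg.Agent.TT

open Cfsg Cfsg.Axial

variable {V : Type*} [AddCommGroup V] [Module ℝ V]
variable {mul : V →ₗ[ℝ] V →ₗ[ℝ] V} {B : LinearMap.BilinForm ℝ V}

theorem sak_main (hV : IsMajoranaAmbient mul B) {μ₀ μ₁ μ₂ : V ≃ₗ[ℝ] V} {a p n p2 n2 : V}
    (h0 : Ax mul B μ₀ a) (h1 : Ax mul B μ₁ p) (h2 : Ax mul B μ₂ n) (e1 : μ₀ p = n)
    (e2 : μ₁ a = p2) (e3 : μ₂ a = n2) (e4 : μ₀ p2 = n2) :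
    B p n = B a p2 ∧
    mul (sg mul a p) (sg mul a p) = (49 / 196608 : ℝ) • (p2 + n2 + (256 * B a p - 5) • (p + n) +
      (((256 * B a p) ^ 2 - 4 * (256 * B a p) + 256 * B p n - 18) / 14 + 1) • a -
      ((1664 + 81920 * B a p) / 49) • sg mul a p - (128 / 7 : ℝ) • sg mul a p2 +
      (96 / 7 : ℝ) • sg mul p n) := by
  have hc := hV.1
  have hs := hV.2.1
  have has := hV.2.2.2.1
  obtain ⟨s1, s2, s3, s4⟩ := h0.sg_facts p
  have t1 := (h0.sg_facts p2).1
  have p4 := (h1.sg_facts a).2.2.2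
  have n4 := (h2.sg_facts a).2.2.2
  have b1 : B a n = B a p := by rw [← e1, h0.B_fix]
  have b2 : B a n2 = B a p2 := by rw [← e4, h0.B_fix]
  have bp := B_sg hV h1.idem h1.norm a
  have bn := B_sg hV h2.idem h2.norm a
  have ba := B_sg hV h0.idem h0.norm p
  have bt := B_sg hV h0.idem h0.norm p2
  rw [e1] at s1 s2 s3 s4
  rw [e4] at t1
  rw [e2, sg_comm hV p a, hs p a] at p4
  rw [e3, sg_comm hV n a, s1, hs n a, b1] at n4
  rw [sg_comm hV p a, hs p a] at bp
  rw [sg_comm hV n a, s1, hs n a, b1] at bn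
  have m1 := mul_eq_sg (mul := mul) a p
  have m2 := mul_eq_sg (mul := mul) a n
  have m3 := mul_eq_sg (mul := mul) a p2
  have m4 := mul_eq_sg (mul := mul) a n2
  have m5 := mul_eq_sg (mul := mul) p n
  rw [s1] at m2
  rw [t1] at m4
  have E1 := h0.f00 _ _ s2 s2
  have E2 := h0.f04 _ _ s2 s3
  have E3 := h0.f44 _ _ s3 s3
  have bo : B a (sg mul p n) = B a p - (B a p + 1) / 32 + (B a p + B p n) / 32 - B a p / 16 := by
    conv_lhs => unfold sg
    rw [map_sub, map_sub, has, m1]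
    simp only [map_add, map_smul, LinearMap.add_apply, LinearMap.smul_apply, smul_eq_mul,
      hs (sg mul a p) n, bn, b1]
    ring
  have kap : B a (mul (sg mul a p + (1 / 64 : ℝ) • (p + n) - (B a p - 1 / 32) • a)
      (sg mul a p + (1 / 64 : ℝ) • (p + n) - (B a p - 1 / 32) • a)) =
      1 / 16 * (B a p - (B a p + 1) / 32 + (1 + B p n) / 64 - (B a p - 1 / 32) * B a p) := by
    rw [has, s3]
    obtain ⟨u, v, w, e, k1, k2, k3⟩ := h0.dec p
    have hβ : sg mul a p + (1 / 64 : ℝ) • (p + n) - (B a p - 1 / 32) • a = (1 / 4 : ℝ) • v := by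
      rw [← e1]
      generalize B a p = c at e ⊢
      subst e
      simp only [sg, map_add, map_smul, h0.fix, h0.fix0 u k1, h0.fix4 v k2, h0.neg w k3,
        h0.idem, k1, k2, k3]
      module
    have o1 : B v a = 0 := by rw [hs]; exact orth_of_eigen hV h0.idem (by norm_num) k2
    have o2 : B v u = 0 := by
      have := has v a u
      rw [k1, hc v a, k2] at this
      simpa using this
    have o3 : B v w = 0 := by
      have := has v a w
      rw [k3, hc v a, k2] at this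
      simp only [map_smul, LinearMap.smul_apply, smul_eq_mul] at this
      linarith
    have o4 : B v p = B v v := by
      conv_lhs => rw [e]
      simp [o1, o2, o3]
    have o5 := congrArg (B p) hβ
    simp only [map_add, map_sub, map_smul, smul_eq_mul, bp, h1.norm, hs p a, hs p v, o4] at o5
    rw [hβ]
    simp only [map_smul, LinearMap.smul_apply, smul_eq_mul]
    linarith
  rw [kap] at E3
  have hY := has a a (sg mul p n)
  rw [h0.idem, bo] at hY
  generalize sg mul a p = s at *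
  generalize sg mul a p2 = t at *
  generalize sg mul p n = o at *
  obtain ⟨l, hl⟩ : ∃ l, l = B a p := ⟨_, rfl⟩
  rw [← hl] at E1 E2 E3 hY ba b1 s4 p4 n4 ⊢
  generalize B p n = m at *
  simp only [map_add, map_sub, map_smul, LinearMap.add_apply, LinearMap.sub_apply,
    LinearMap.smul_apply, hc s a, hc s p, hc s n, hc p a, hc n a, hc n p, h0.idem, h1.idem,
    h2.idem, m1, m2, m3, m4, m5, s4, p4, n4] at E1 E2 E3
  constructor
  · have Y : mul a o = (32 / 3 * l - 19 / 48) • s + (-127 / 3072 - m / 24 + 5 / 3 * l -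
        32 / 3 * l ^ 2) • a + (l / 6 - 19 / 3072) • (p + n) + (7 / 96 : ℝ) • t +
        (7 / 6144 : ℝ) • (p2 + n2) := by
      linear_combination (norm := module) (128 / 3 : ℝ) • E1 - (128 / 3 : ℝ) • E3
    rw [Y] at hY
    simp only [map_add, map_smul, smul_eq_mul, ba, bt, b1, b2, h0.norm, ← hl] at hY
    linear_combination (-96 / 7 : ℝ) * hY
  · linear_combination (norm := module) (-4 : ℝ) • E2 - (4 / 6 : ℝ) • E1 + (28 / 6 : ℝ) • E3

/-- a dihedral family of axes -/
structure Fam (mul : V →ₗ[ℝ] V →ₗ[ℝ] V) (B : LinearMap.BilinForm ℝ V) (τ : ℤ → V ≃ₗ[ℝ] V)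
    (a : ℤ → V) : Prop where
  ax : ∀ j, Ax mul B (τ j) (a j)
  refl : ∀ j d, τ j (a (j + d)) = a (j - d)

variable {τ : ℤ → V ≃ₗ[ℝ] V} {a : ℤ → V}

theorem Fam.sg_neg (h : Fam mul B τ a) (j d : ℤ) :
    sg mul (a j) (a (j - d)) = sg mul (a j) (a (j + d)) := by
  rw [← h.refl, ((h.ax j).sg_facts _).1]

theorem Fam.B_neg (h : Fam mul B τ a) (j d : ℤ) : B (a j) (a (j - d)) = B (a j) (a (j + d)) := by
  rw [← h.refl, (h.ax j).B_fix]

theorem Fam.sg_per (hV : IsMajoranaAmbient mul B) (h : Fam mul B τ a) (j d : ℤ) :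
    sg mul (a (j + d)) (a (j + d + d)) = sg mul (a j) (a (j + d)) := by
  rw [← h.sg_neg, add_sub_cancel_right, sg_comm hV]

theorem Fam.B_per (hV : IsMajoranaAmbient mul B) (h : Fam mul B τ a) (j d : ℤ) :
    B (a (j + d)) (a (j + d + d)) = B (a j) (a (j + d)) := by
  rw [← h.B_neg, add_sub_cancel_right, hV.2.1]

theorem const_of_step {α : Type*} (f : ℤ → α) (h : ∀ j, f (j + 1) = f j) (j : ℤ) : f j = f 0 := by
  induction j using Int.induction_on with
  | zero => rfl
  | succ i ih => rw [h, ih]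
  | pred i ih => rw [← h, sub_add_cancel, ih]

theorem Fam.period (hV : IsMajoranaAmbient mul B) (h : Fam mul B τ a) :
    a 4 = a 0 ∨ a 5 = a 0 ∨ a 6 = a 0 := by
  obtain ⟨σ, hσ⟩ : ∃ σ : ℤ → ℤ → V, ∀ d j, σ d j = sg mul (a j) (a (j + d)) := ⟨_, fun _ _ => rfl⟩
  have per : ∀ d j, σ d (j + d) = σ d j := fun d j => by rw [hσ, hσ, h.sg_per hV]
  have mp : ∀ j d, mul (a j) (a (j + d)) = σ d j + (1 / 32 : ℝ) • a j + (1 / 32 : ℝ) • a (j + d) :=
    fun j d => by rw [hσ]; exact mul_eq_sg _ _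
  have mn : ∀ j d, mul (a j) (a (j - d)) = σ d j + (1 / 32 : ℝ) • a j + (1 / 32 : ℝ) • a (j - d) :=
    fun j d => by rw [hσ, ← h.sg_neg]; exact mul_eq_sg _ _
  have c1 : ∀ j, σ 1 j = σ 1 0 := const_of_step _ (per 1)
  have l1 : ∀ j, B (a j) (a (j + 1)) = B (a 0) (a 1) := fun j => by
    simpa using const_of_step (fun j => B (a j) (a (j + 1))) (fun j => h.B_per hV j 1) j
  have M := fun j => sak_main hV (h.ax j) (h.ax (j + 1)) (h.ax (j - 1)) (h.refl j 1)
    (p2 := a (j + 2)) (n2 := a (j - 2))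
    (by have := h.refl (j + 1) (-1); simp only [add_neg_cancel_right] at this; rw [this]; congr 1; ring)
    (by have := h.refl (j - 1) 1; simp only [sub_add_cancel] at this; rw [this]; congr 1; ring)
    (h.refl j 2)
  have i1 : ∀ j : ℤ, j - 1 = j + 1 - 2 := fun j => by ring
  have l2 : ∀ j, B (a j) (a (j + 2)) = B (a 0) (a 2) := fun j => by
    simpa using const_of_step (fun j => B (a j) (a (j + 2))) (fun j => by
      rw [← (M j).1, i1, h.B_neg]) j
  obtain ⟨l, hl⟩ : ∃ l, l = B (a 0) (a 1) := ⟨_, rfl⟩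
  obtain ⟨m, hm⟩ : ∃ m, m = B (a 0) (a 2) := ⟨_, rfl⟩
  obtain ⟨Q, hQ⟩ : ∃ Q, Q = 256 * l - 5 := ⟨_, rfl⟩
  obtain ⟨R, hR⟩ : ∃ R, R = ((256 * l) ^ 2 - 4 * (256 * l) + 256 * m - 18) / 14 := ⟨_, rfl⟩
  have M' : ∀ j, mul (σ 1 0) (σ 1 0) = (49 / 196608 : ℝ) • (a (j + 2) + a (j - 2) +
      Q • (a (j + 1) + a (j - 1)) + (R + 1) • a j - ((1664 + 81920 * l) / 49) • σ 1 0 -
      (128 / 7 : ℝ) • σ 2 j + (96 / 7 : ℝ) • σ 2 (j + 1)) := fun j => by
    have := (M j).2
    rw [(M j).1, l1, l2, ← hσ, ← hσ, c1, i1, h.sg_neg, ← hσ, ← i1, ← hl, ← hm, ← hQ, ← hR] at this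
    exact this
  have F : ∀ j, a (j + 3) - a (j - 2) + (Q - 1) • a (j + 2) + (R + 1 - Q) • (a (j + 1) - a j) +
      (1 - Q) • a (j - 1) = (32 : ℝ) • (σ 2 (j + 1) - σ 2 j) := fun j => by
    have a1 := M' j
    have a2 := M' (j + 1)
    rw [show j + 1 + 2 = j + 3 by ring, show j + 1 - 2 = j - 1 by ring, show j + 1 + 1 = j + 2 by ring,
      add_sub_cancel_right, per] at a2
    linear_combination (norm := module) (196608 / 49 : ℝ) • a1 - (196608 / 49 : ℝ) • a2
  have P : ∀ j, a (j + 4) + Q • a (j + 3) + R • a (j + 2) - R • a j - Q • a (j - 1) - a (j - 2) = 0 :=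
    fun j => by
    have a1 := F j
    have a2 := F (j + 1)
    rw [show j + 1 + 2 = j + 3 by ring, show j + 1 - 2 = j - 1 by ring, show j + 1 + 1 = j + 2 by ring,
      show j + 1 + 3 = j + 4 by ring, add_sub_cancel_right, per] at a2
    linear_combination (norm := module) a1 + a2
  have E1 : ∀ j, (15 / 16 * R) • a j = (R - 1) • σ 2 j - Q • σ 1 0 + Q • σ 3 j + σ 4 j := fun j => by
    have := congrArg (mul (a j)) (P j)
    simp only [map_add, map_sub, map_smul, map_zero, mp, mn, (h.ax j).idem, c1 j] at this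
    linear_combination (norm := module) (1 / 32 : ℝ) • P j - this
  have E2 : ∀ j, (15 / 16 * Q) • a j = -(1 + R) • σ 1 0 + R • σ 3 j + Q • σ 4 j + σ 5 j := fun j => by
    have a2 := P (j + 1)
    rw [show j + 1 + 2 = j + 3 by ring, show j + 1 - 2 = j - 1 by ring, show j + 1 + 3 = j + 4 by ring,
      show j + 1 + 4 = j + 5 by ring, add_sub_cancel_right] at a2
    have := congrArg (mul (a j)) a2
    simp only [map_add, map_sub, map_smul, map_zero, mp, mn, (h.ax j).idem, c1 j] at this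
    linear_combination (norm := module) (1 / 32 : ℝ) • a2 - this
  have cancel : ∀ {c : ℝ} {x y : V}, c ≠ 0 → c • (x - y) = 0 → x = y := fun hc e =>
    sub_eq_zero.1 ((smul_eq_zero.1 e).resolve_left hc)
  have P' : ∀ j, a (j + 6) + Q • a (j + 5) + R • a (j + 4) - R • a (j + 2) - Q • a (j + 1) - a j = 0 :=
    fun j => by
    have a2 := P (j + 2)
    rwa [show j + 2 + 4 = j + 6 by ring, show j + 2 + 3 = j + 5 by ring, show j + 2 + 2 = j + 4 by ring,
      show j + 2 - 1 = j + 1 by ring, add_sub_cancel_right] at a2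
  have p24 : ∀ j, σ 2 (j + 4) = σ 2 j := fun j => by rw [← per 2 j, ← per 2 (j + 2)]; congr 1; ring
  by_cases hR0 : R = 0
  · by_cases hQ0 : Q = 0
    · right; right
      have := P' 0
      simp only [hR0, hQ0, zero_smul, add_zero, zero_add, sub_zero] at this
      exact sub_eq_zero.1 this
    have s3 : ∀ j, σ 3 (j + 1) = σ 3 j := fun j => by
      have a1 := E1 j
      have a2 := E1 (j + 4)
      rw [p24, per, show j + 4 = j + 1 + 3 by ring, per, hR0] at a2
      rw [hR0] at a1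
      exact cancel hQ0 (by linear_combination (norm := module) a1 - a2)
    have D : ∀ j, (15 / 16 : ℝ) • (a (j + 5) - a j) = σ 2 (j + 1) - σ 2 j := fun j => by
      have a1 := E2 j
      have a2 := E2 (j + 5)
      have a3 := E1 j
      have a4 := E1 (j + 1)
      rw [per, show j + 5 = j + 1 + 4 by ring, per, show j + 1 + 4 = j + 5 by ring] at a2
      rw [s3] at a4
      rw [hR0] at a1 a2 a3 a4
      exact cancel hQ0 (by linear_combination (norm := module) a2 - a1 + Q • a3 - Q • a4)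
    by_cases hQ1 : Q = 1
    · right; left
      have a1 := F 2
      have a2 := D 0
      have a3 := per 2 0
      have a4 := per 2 1
      norm_num at a1 a2 a3 a4
      rw [hQ1, hR0, a3, a4] at a1
      exact cancel (c := 29) (by norm_num)
        (by linear_combination (norm := module) (32 : ℝ) • a2 - a1)
    · left
      have a1 := D (-1)
      have a2 := D 0
      have a3 := per 2 (-1)
      have a4 := P' (-1)
      norm_num at a1 a2 a3 a4
      rw [hR0] at a4
      rw [a3] at a2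
      exact cancel (sub_ne_zero.2 hQ1)
        (by linear_combination (norm := module) a4 - (16 / 15 : ℝ) • a1 - (16 / 15 : ℝ) • a2)
  have G : ∀ j, a (j + 6) + a (j + 5) + a (j + 4) - a (j + 2) - a (j + 1) - a j = 0 := fun j => by
    have a0 := E1 j
    have a1 := E1 (j + 1)
    have a2 := E1 (j + 2)
    have a4 := E1 (j + 4)
    have a5 := E1 (j + 1 + 4)
    have a6 := E1 (j + 2 + 4)
    rw [p24, per, show j + 4 = j + 1 + 3 by ring, per, show j + 1 + 3 = j + 4 by ring] at a4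
    rw [p24, per, show j + 1 + 4 = j + 2 + 3 by ring, per, show j + 2 + 3 = j + 5 by ring] at a5
    rw [p24, per 4, show j + 2 + 4 = j + 3 + 3 by ring, per 3, per 3,
      show j + 3 + 3 = j + 6 by ring] at a6
    refine cancel (c := 15 / 16 * R) (mul_ne_zero (by norm_num) hR0) ?_
    linear_combination (norm := module) a6 + a5 + a4 - a2 - a1 - a0
  by_cases hRQ : R = Q
  · by_cases hQ1 : Q = 1
    · exfalso
      have a1 := congrArg (B (a 0)) (F 0)
      have a2 := hV.2.2.2.2 (a 0) (a 3)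
      have a3 := B_nonneg hV (mul (a 0) (a 3))
      have a4 := h.B_neg 0 2
      have a5 := h.B_neg 0 1
      have a6 := B_sg hV (h.ax 0).idem (h.ax 0).norm (a (0 + 2))
      have a7 : B (a 0) (σ 2 1) = l - (l + 1) / 32 + (l + m) / 32 - l / 16 := by
        have b1 := l2 1
        have b2 := B_sg hV (h.ax 1).idem (h.ax 1).norm (a (1 + 1))
        have b3 := h.sg_neg 1 2
        have b4 := mn 0 1
        have b5 := l1 (-1)
        rw [← hσ, c1, l1] at b2
        rw [hσ, ← b3, sg_comm hV]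
        unfold sg
        rw [map_sub, map_sub, hV.2.2.2.1]
        have b6 := h.B_neg 1 2
        norm_num at b1 b2 b4 b5 b6 a5 ⊢
        rw [b4]
        simp only [map_add, map_smul, LinearMap.add_apply, LinearMap.smul_apply, smul_eq_mul,
          hV.2.1 (σ 1 0), b2, a5, hV.2.1 (a (-1)) (a 1), b6, b1, ← hl, ← hm]
        ring
      rw [← hσ] at a6
      rw [(h.ax 0).idem, (h.ax 3).idem] at a2
      simp only [map_add, map_sub, map_smul, smul_eq_mul, zero_add, a4, a5, a6, a7, (h.ax 0).norm,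
        ← hl, ← hm, hRQ, hQ1] at a1
      have e1 : l = 6 / 256 := by linarith
      rw [hRQ, hQ1, e1] at hR
      linarith
    · right; right
      have a1 := P' 0
      have a2 := G 0
      norm_num at a1 a2
      rw [hRQ] at a1
      exact cancel (sub_ne_zero.2 hQ1) (by linear_combination (norm := module) Q • a2 - a1)
  · left
    have a1 := P' (-2)
    have a2 := G (-2)
    have a3 := P' 0
    have a4 := G 0
    have a5 := G (-1)
    norm_num at a1 a2 a3 a4 a5
    exact cancel (sub_ne_zero.2 hRQ)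
      (by linear_combination (norm := module) a1 - a2 + a3 - a4 - (Q - 1) • a5)

theorem zpow_aut {T : V ≃ₗ[ℝ] V} (h1 : ∀ u v, T (mul u v) = mul (T u) (T v))
    (h2 : ∀ u v, B (T u) (T v) = B u v) (k : ℤ) :
    (∀ u v, (T ^ k) (mul u v) = mul ((T ^ k) u) ((T ^ k) v)) ∧
      ∀ u v, B ((T ^ k) u) ((T ^ k) v) = B u v := by
  let S : Subgroup (V ≃ₗ[ℝ] V) :=
    { carrier := {T | (∀ u v, T (mul u v) = mul (T u) (T v)) ∧ ∀ u v, B (T u) (T v) = B u v}
      one_mem' := ⟨fun _ _ => rfl, fun _ _ => rfl⟩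
      mul_mem' := fun {x y} hx hy => ⟨fun u v => by simp only [LinearEquiv.mul_apply, hy.1, hx.1],
        fun u v => by simp only [LinearEquiv.mul_apply, hy.2, hx.2]⟩
      inv_mem' := fun {x} hx => ⟨fun u v => x.injective (by rw [hx.1]; simp),
        fun u v => by rw [← hx.2]; simp⟩ }
  exact S.zpow_mem (x := T) ⟨h1, h2⟩ k

theorem exists_fam {μ₀ μ₁ : V ≃ₗ[ℝ] V} {a₀ a₁ : V} (h0 : Ax mul B μ₀ a₀) (h1 : Ax mul B μ₁ a₁) :
    ∃ a : ℤ → V, Fam mul B (fun j => (μ₁ * μ₀) ^ j * μ₀) a := by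
  set T := μ₁ * μ₀ with hT
  have i0 : μ₀⁻¹ = μ₀ := inv_eq_of_mul_eq_one_right h0.sq
  have i1 : μ₁⁻¹ = μ₁ := inv_eq_of_mul_eq_one_right h1.sq
  have c0 : ∀ k : ℤ, μ₀ * T ^ k = T ^ (-k) * μ₀ := fun k => by
    have : μ₀ * T * μ₀⁻¹ = T⁻¹ := by rw [hT, mul_inv_rev, i1, mul_assoc, mul_inv_cancel_right, i0]
    rw [zpow_neg, ← inv_zpow, ← this, conj_zpow]; simp
  have e1 : μ₁ = T * μ₀ := by rw [hT, mul_assoc, h0.sq, mul_one]
  have aT := zpow_aut (T := T) (mul := mul) (B := B)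
    (fun u v => by simp only [hT, LinearEquiv.mul_apply, h0.aut, h1.aut])
    (fun u v => by simp only [hT, LinearEquiv.mul_apply, h0.iso, h1.iso])
  let a : ℤ → V := fun j => (T ^ (j / 2)) (if j % 2 = 0 then a₀ else a₁)
  have ae : ∀ k, a (2 * k) = (T ^ k) a₀ := fun k => by simp [a]
  have ao : ∀ k, a (2 * k + 1) = (T ^ k) a₁ := fun k => by
    have e1 : (2 * k + 1) / 2 = k := by omega
    have e2 : ¬ (2 * k + 1) % 2 = 0 := by omega
    simp only [a, e1, e2, if_false]
  refine ⟨a, fun j => ?_, fun j d => ?_⟩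
  · obtain ⟨k, rfl | rfl⟩ := Int.even_or_odd' j
    · have := h0.conj (T ^ k) (aT k).1 (aT k).2
      rwa [← ae, mul_assoc, ← zpow_neg, c0, neg_neg, ← mul_assoc, ← zpow_add, ← two_mul] at this
    · have := h1.conj (T ^ k) (aT k).1 (aT k).2
      rwa [← ao, e1, mul_assoc, mul_assoc, ← zpow_neg, c0, neg_neg, ← mul_assoc, ← mul_assoc,
        ← zpow_add_one, ← zpow_add, show k + 1 + k = 2 * k + 1 by ring] at this
  · obtain ⟨k, e | e⟩ := Int.even_or_odd' (j + d)
    · rw [e, ae, show j - d = 2 * (j - k) by omega, ae, ← LinearEquiv.mul_apply, mul_assoc, c0,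
        ← mul_assoc, ← zpow_add, LinearEquiv.mul_apply, h0.fix, sub_eq_add_neg]
    · have e2 : μ₀ = T ^ (-1 : ℤ) * μ₁ := by rw [e1]; simp
      rw [e, ao, show j - d = 2 * (j - k - 1) + 1 by omega, ao, ← LinearEquiv.mul_apply, mul_assoc,
        c0, ← mul_assoc, ← zpow_add, e2, ← mul_assoc, ← zpow_add, LinearEquiv.mul_apply, h1.fix]
      rfl

theorem sakuma (hV : IsMajoranaAmbient mul B) {μ₀ μ₁ : V ≃ₗ[ℝ] V} {a₀ a₁ : V}
    (h0 : Ax mul B μ₀ a₀) (h1 : Ax mul B μ₁ a₁) : ∃ n : ℕ, 1 ≤ n ∧ n ≤ 6 ∧ (μ₀ * μ₁) ^ n = 1 := by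
  obtain ⟨a, h⟩ := exists_fam h1 h0
  have key : ∀ n : ℕ, a n = a 0 → (μ₀ * μ₁) ^ n = 1 := fun n e => by
    have := (e ▸ h.ax n).unique (h.ax 0)
    simpa using this
  rcases h.period hV with e | e | e
  · exact ⟨4, by norm_num, by norm_num, key 4 e⟩
  · exact ⟨5, by norm_num, by norm_num, key 5 e⟩
  · exact ⟨6, by norm_num, by norm_num, key 6 e⟩

end Cfsg.Agent.TT
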